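import Cfsg.Agent.Lib.SharplyEven.RankOneApps

/-!
S1161, S1131, S1132, S1133 with solubility of the odd order group as a hypothesis
(to be discharged by the odd order theorem).
-/

set_option autoImplicit false

namespace CfsgLib.SharplyEven.PendingFT

theorem s1161 {D E : Type*} [Group D] [Finite D] [AddCommGroup E] [Finite E] [DistribMulAction D E]
    [FaithfulSMul D E] (hodd : Odd (Nat.card D)) {q : ℕ} (hq : q.Prime) (hE : ∀ e : E, q • e = 0)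
    (htrans : ∀ a b : E, a ≠ 0 → b ≠ 0 → ∃ d : D, d • a = b) (hsol : Group.IsSolvable D) :
    IsCyclic ↥(Cfsg.fittingSubgroup D) ∧
      (∀ g ∈ Cfsg.fittingSubgroup D, g ≠ 1 → ∀ a : E, g • a = a → a = 0) ∧
      commutator D ≤ Cfsg.fittingSubgroup D := by
  obtain ⟨h1, h2⟩ := TransitiveOdd.fitting_semiregular hodd hq hE htrans
  exact ⟨h1, h2, TransitiveOdd.commutator_le_fitting hsol h1⟩

variable {G Ω : Type*} [Group G] [Finite G] [MulAction G Ω] {a : Ω} {t : G} {Q : Subgroup G}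

theorem s1131 (hS : Cfsg.IsRankOneSetup G Ω a t Q)
    (h2 : ∃ x y : G, x ≠ 1 ∧ y ≠ 1 ∧ x ≠ y ∧ x * x = 1 ∧ y * y = 1 ∧ x * y = y * x)
    (hsol : Group.IsSolvable ↥(MulAction.stabilizer G a ⊓ MulAction.stabilizer G (t • a))) :
    ∃ C : Subgroup G, (C : Set G) = Cfsg.invertedBy (MulAction.stabilizer G a ⊓ MulAction.stabilizer G (t • a)) t ∧ IsCyclic C ∧
      ∀ d ∈ (MulAction.stabilizer G a ⊓ MulAction.stabilizer G (t • a)), ∀ c ∈ C, d * c * d⁻¹ ∈ C := by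
  obtain ⟨k₀, hk₀K, hk₀⟩ := RankOneField.exists_generator hS h2 hsol
  refine ⟨Subgroup.zpowers k₀, hk₀, inferInstance, fun d hd c hc => ?_⟩
  obtain ⟨⟨v, k⟩, ⟨hv, hk, hvk⟩, -⟩ := CfsgLib.RankOne.existsUnique_factor hS.mul_self hS.odd_card
    (fun _ h => CfsgLib.RankOne.twoPoint_conj hS h) hd
  have hk' : k ∈ Subgroup.zpowers k₀ := by rw [← SetLike.mem_coe, hk₀]; exact hk
  have hm : k * c * k⁻¹ ∈ Subgroup.zpowers k₀ := mul_mem (mul_mem hk' hc) (inv_mem hk')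
  have hvk' : d = v * k := hvk
  rw [hvk', show v * k * c * (v * k)⁻¹ = v * (k * c * k⁻¹) * v⁻¹ by group, ← SetLike.mem_coe, hk₀]
  rw [← SetLike.mem_coe, hk₀] at hm
  obtain ⟨hvD, hvt⟩ := hv
  have hvt' : t * v * t⁻¹ = v := by
    rw [← Subgroup.mem_centralizer_singleton_iff.1 hvt, mul_inv_cancel_right]
  refine ⟨Subgroup.mul_mem _ (Subgroup.mul_mem _ hvD hm.1) (Subgroup.inv_mem _ hvD), ?_⟩
  calc t * (v * (k * c * k⁻¹) * v⁻¹) * t⁻¹
      = (t * v * t⁻¹) * (t * (k * c * k⁻¹) * t⁻¹) * (t * v * t⁻¹)⁻¹ := by group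
    _ = (v * (k * c * k⁻¹) * v⁻¹)⁻¹ := by rw [hvt', hm.2]; group

theorem s1132 (hS : Cfsg.IsRankOneSetup G Ω a t Q)
    (h2 : ∃ x y : G, x ≠ 1 ∧ y ≠ 1 ∧ x ≠ y ∧ x * x = 1 ∧ y * y = 1 ∧ x * y = y * x)
    (hsol : Group.IsSolvable ↥(MulAction.stabilizer G a ⊓ MulAction.stabilizer G (t • a))) (S : Sylow 2 ↥Q) :
    IsMulCommutative (S : Subgroup ↥Q) ∨ Cfsg.IsSuzukiTwoGroup ↥(S : Subgroup ↥Q) := by
  obtain ⟨k₀, -, hk₀⟩ := RankOneField.exists_generator hS h2 hsol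
  exact RankOneField.sylow_suzuki hS h2 hk₀ S

theorem s1133 (hS : Cfsg.IsRankOneSetup G Ω a t Q)
    (h2 : ∃ x y : G, x ≠ 1 ∧ y ≠ 1 ∧ x ≠ y ∧ x * x = 1 ∧ y * y = 1 ∧ x * y = y * x)
    (hsol : Group.IsSolvable ↥(MulAction.stabilizer G a ⊓ MulAction.stabilizer G (t • a))) :
    ∃ v ∈ (MulAction.stabilizer G a ⊓ MulAction.stabilizer G (t • a)) ⊓ Subgroup.centralizer {t},
      ((MulAction.stabilizer G a ⊓ MulAction.stabilizer G (t • a)) ⊓ Subgroup.centralizer {t} ⊓ Subgroup.centralizer (Cfsg.invertedBy (MulAction.stabilizer G a ⊓ MulAction.stabilizer G (t • a)) t)) ⊔ Subgroup.closure {v} =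
        (MulAction.stabilizer G a ⊓ MulAction.stabilizer G (t • a)) ⊓ Subgroup.centralizer {t} := by
  obtain ⟨k₀, -, hk₀⟩ := RankOneField.exists_generator hS h2 hsol
  exact RankOneField.exists_gen_centralizer hS h2 hk₀

end CfsgLib.SharplyEven.PendingFT
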