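import Cfsg.Agent.Lib.SharplyEven.RankOneField
import Mathlib.FieldTheory.Finite.Basic

/-!
Consequences of the cyclicity of the inverted set: Sylow 2-subgroups of `Q`, and `V / W` is cyclic.
-/

set_option autoImplicit false
set_option linter.unusedSectionVars false

namespace CfsgLib.SharplyEven.RankOneField

open MulAction CfsgLib.RankOne

variable {G Ω : Type*} [Group G] [Finite G] [MulAction G Ω] {a : Ω} {t : G} {Q : Subgroup G}

/-- A Sylow 2-subgroup of `Q` is abelian or a Suzuki 2-group. -/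
theorem sylow_suzuki (hS : Cfsg.IsRankOneSetup G Ω a t Q)
    (h2 : ∃ x y : G, x ≠ 1 ∧ y ≠ 1 ∧ x ≠ y ∧ x * x = 1 ∧ y * y = 1 ∧ x * y = y * x)
    {k₀ : G} (hk₀ : (Subgroup.zpowers k₀ : Set G) = Cfsg.invertedBy (twoPoint G a t) t)
    (S : Sylow 2 ↥Q) :
    IsMulCommutative (S : Subgroup ↥Q) ∨ Cfsg.IsSuzukiTwoGroup ↥(S : Subgroup ↥Q) := by
  classical
  by_cases hc : IsMulCommutative (S : Subgroup ↥Q)
  · exact Or.inl hc
  haveI : Fact (Nat.Prime 2) := ⟨Nat.prime_two⟩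
  haveI := CfsgLib.RankOne.isNilpotent_Q hS h2
  haveI hSn : (S : Subgroup ↥Q).Normal :=
    ((Group.isNilpotent_of_finite_tfae (G := ↥Q)).out 0 3 :
      Group.IsNilpotent ↥Q ↔ ∀ (p : ℕ) (_hp : Fact p.Prime) (S : Sylow p ↥Q), (S : Subgroup ↥Q).Normal).1
      inferInstance 2 ⟨Nat.prime_two⟩ S
  have hmem : ∀ x : ↥Q, x * x = 1 → x ∈ (S : Subgroup ↥Q) := fun x hx => by
    by_cases hx1 : x = 1
    · rw [hx1]; exact one_mem _
    have ho : orderOf x = 2 := orderOf_eq_prime (by rw [sq, hx]) hx1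
    obtain ⟨T, hT⟩ := (IsPGroup.of_card (p := 2) (G := Subgroup.zpowers x) (n := 1)
      (by rw [Nat.card_zpowers, ho, pow_one])).exists_le_sylow
    letI := Sylow.unique_of_normal S hSn
    rw [Subsingleton.elim T S] at hT
    exact hT (Subgroup.mem_zpowers x)
  have hinv : ∀ x : ↥(S : Subgroup ↥Q), x ≠ 1 → x * x = 1 →
      ((x : ↥Q) : G) ∈ Cfsg.involutionsIn (stabilizer G a : Set G) := fun x hx1 hx2 =>
    ⟨Q_fix hS x.1.2, fun e => hx1 (Subtype.ext (Subtype.ext e)),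
      congrArg (fun y : ↥(S : Subgroup ↥Q) => ((y : ↥Q) : G)) hx2⟩
  have hCD : ∀ c : ↥(Subgroup.zpowers k₀), (c : G) ∈ Cfsg.invertedBy (twoPoint G a t) t := fun c => by
    rw [← hk₀]; exact c.2
  let conjQ : ↥(Subgroup.zpowers k₀) → MulAut ↥Q := fun c =>
    { toFun := fun q => ⟨(c : G) * q * (c : G)⁻¹, conj_mem_Q hS (hCD c).1.1 q.2⟩
      invFun := fun q => ⟨(c : G)⁻¹ * q * c, conj_inv_mem_Q hS (hCD c).1.1 q.2⟩
      left_inv := fun q => Subtype.ext (by simp [mul_assoc])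
      right_inv := fun q => Subtype.ext (by simp [mul_assoc])
      map_mul' := fun q r => Subtype.ext (by simp [mul_assoc]) }
  have hfix : ∀ c q, q ∈ (S : Subgroup ↥Q) → conjQ c q ∈ (S : Subgroup ↥Q) := fun c q hq => by
    haveI : (S : Subgroup ↥Q).Characteristic := S.characteristic_of_normal hSn
    exact (Subgroup.characteristic_iff_map_eq.1 inferInstance (conjQ c)).le ⟨q, hq, rfl⟩
  let ψ : ↥(Subgroup.zpowers k₀) →* MulAut ↥(S : Subgroup ↥Q) :=
    MonoidHom.mk' (fun c =>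
      { toFun := fun q => ⟨conjQ c q, hfix c q q.2⟩
        invFun := fun q => ⟨conjQ c⁻¹ q, hfix c⁻¹ q q.2⟩
        left_inv := fun q => Subtype.ext (Subtype.ext (by simp [conjQ, mul_assoc]))
        right_inv := fun q => Subtype.ext (Subtype.ext (by simp [conjQ, mul_assoc]))
        map_mul' := fun q r => Subtype.ext (map_mul (conjQ c) _ _) })
      fun c d => MulEquiv.ext fun q => Subtype.ext (Subtype.ext (by
        show ((c * d : ↥(Subgroup.zpowers k₀)) : G) * _ * _ = (c : G) * ((d : G) * _ * (d : G)⁻¹) * (c : G)⁻¹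
        rw [Subgroup.coe_mul]; group))
  refine Or.inr ⟨inferInstance, S.2, ?_, ?_, ψ.range,
    isCyclic_of_surjective _ ψ.rangeRestrict_surjective, fun x y hx1 hx hy1 hy => ?_⟩
  · by_contra h
    push Not at h
    exact hc ⟨⟨h⟩⟩
  · obtain ⟨u, hu, v, hv, huv, -⟩ := exists_two_involutions hS h2
    have huQ := involution_mem_Q hS hu.1 hu.2.2
    have hvQ := involution_mem_Q hS hv.1 hv.2.2
    refine ⟨⟨⟨u, huQ⟩, hmem _ (Subtype.ext hu.2.2)⟩, ⟨⟨v, hvQ⟩, hmem _ (Subtype.ext hv.2.2)⟩,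
      fun e => huv (congrArg (fun y : ↥(S : Subgroup ↥Q) => ((y : ↥Q) : G)) e),
      fun e => hu.2.1 (congrArg (fun y : ↥(S : Subgroup ↥Q) => ((y : ↥Q) : G)) e),
      Subtype.ext (Subtype.ext hu.2.2),
      fun e => hv.2.1 (congrArg (fun y : ↥(S : Subgroup ↥Q) => ((y : ↥Q) : G)) e),
      Subtype.ext (Subtype.ext hv.2.2)⟩
  · obtain ⟨k, hk, hkxy⟩ := exists_conj_inverted hS (hinv x hx1 hx) (hinv y hy1 hy)
    rw [← hk₀] at hk
    refine ⟨⟨ψ ⟨k⁻¹, inv_mem hk⟩, ⟨_, rfl⟩⟩, Subtype.ext (Subtype.ext ?_), ?_⟩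
    · show k⁻¹ * _ * k⁻¹⁻¹ = _
      rw [inv_inv]; exact hkxy
    · rintro ⟨-, c, rfl⟩ hc'
      refine Subtype.ext (congrArg ψ (Subtype.ext ?_))
      show (c : G) = k⁻¹
      have h1 : (c : G) * ((x : ↥Q) : G) * (c : G)⁻¹ = ((y : ↥Q) : G) :=
        congrArg (fun y : ↥(S : Subgroup ↥Q) => ((y : ↥Q) : G)) hc'
      obtain ⟨s₀, r₀, h₀⟩ := exists_base hS
      obtain ⟨b, hb, hbx⟩ := exists_conj_base hS h₀ (hinv x hx1 hx)
      rw [← hk₀] at hb
      have hm : ∀ {g : G}, g ∈ Subgroup.zpowers k₀ → g ∈ Cfsg.invertedBy (twoPoint G a t) t :=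
        fun hg => by rw [← hk₀]; exact hg
      have h3 := conj_base_injective hS h₀ (hm (mul_mem hb (inv_mem c.2))) (hm (mul_mem hb hk))
        (calc (b * (c : G)⁻¹)⁻¹ * s₀ * (b * (c : G)⁻¹) = (c : G) * (b⁻¹ * s₀ * b) * (c : G)⁻¹ := by group
          _ = k⁻¹ * (b⁻¹ * s₀ * b) * k := by rw [hbx, h1, hkxy]
          _ = (b * k)⁻¹ * s₀ * (b * k) := by group)
      rw [← mul_left_cancel h3, inv_inv]

/-- Endomorphisms of a finite commutative domain of characteristic two are powers of squaring. -/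
theorem ringHom_eq_pow {R : Type*} [Ring R] [Finite R] [Nontrivial R] (hcomm : ∀ x y : R, x * y = y * x)
    (hdom : ∀ x y : R, x * y = 0 → x = 0 ∨ y = 0) (h2 : (1 : R) + 1 = 0) (σ : R →+* R) :
    ∃ j : ℕ, ∀ x, σ x = x ^ (2 ^ j) := by
  classical
  letI : CommRing R := { ‹Ring R› with mul_comm := hcomm }
  haveI : NoZeroDivisors R := ⟨fun {x y} h => hdom x y h⟩
  haveI : IsDomain R := NoZeroDivisors.to_isDomain R
  haveI := Fintype.ofFinite R
  letI : Field R := Fintype.fieldOfDomain R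
  haveI : Fact (Nat.Prime 2) := ⟨Nat.prime_two⟩
  haveI : CharP R 2 := CharTwo.of_one_ne_zero_of_two_eq_zero one_ne_zero (by rw [← one_add_one_eq_two, h2])
  letI : Algebra (ZMod 2) R := ZMod.algebra R 2
  let σA : R →ₐ[ZMod 2] R :=
    { σ with commutes' := fun r => RingHom.congr_fun (RingHom.ext_zmod (σ.comp (algebraMap (ZMod 2) R)) (algebraMap (ZMod 2) R)) r }
  obtain ⟨j, hj⟩ := (FiniteField.bijective_frobeniusAlgHom_pow (ZMod 2) R).2 σA
  refine ⟨j, fun x => ?_⟩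
  show σA x = x ^ (2 ^ (j : ℕ))
  rw [← hj]
  simp only [AlgHom.coe_pow, FiniteField.coe_frobeniusAlgHom, pow_iterate, ZMod.card]

/-- `V / C_V(K)` is cyclic. -/
theorem exists_gen_centralizer (hS : Cfsg.IsRankOneSetup G Ω a t Q)
    (h2 : ∃ x y : G, x ≠ 1 ∧ y ≠ 1 ∧ x ≠ y ∧ x * x = 1 ∧ y * y = 1 ∧ x * y = y * x)
    {k₀ : G} (hk₀ : (Subgroup.zpowers k₀ : Set G) = Cfsg.invertedBy (twoPoint G a t) t) :
    ∃ v ∈ twoPoint G a t ⊓ Subgroup.centralizer {t},
      (twoPoint G a t ⊓ Subgroup.centralizer {t} ⊓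
          Subgroup.centralizer (Cfsg.invertedBy (twoPoint G a t) t)) ⊔ Subgroup.closure {v} =
        twoPoint G a t ⊓ Subgroup.centralizer {t} := by
  classical
  obtain ⟨E, hEQ, hEmem, hEsq, hEcomm, hEconj⟩ := exists_invSubgroup hS h2
  letI : CommGroup E :=
    { (inferInstance : Group E) with mul_comm := fun s s' => Subtype.ext (hEcomm s s.2 s' s'.2) }
  set D := twoPoint G a t with hD
  set V := D ⊓ Subgroup.centralizer ({t} : Set G) with hV
  have hk₀K : k₀ ∈ Cfsg.invertedBy D t := by rw [← hk₀]; exact Subgroup.mem_zpowers k₀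
  let e : D →* AddMonoid.End (Additive E) :=
    { toFun := fun d =>
        { toFun := fun s => Additive.ofMul ⟨(d : G) * (s.toMul : G) * (d : G)⁻¹, hEconj d d.2.1 _ s.toMul.2⟩
          map_zero' := Subtype.ext (show (d : G) * 1 * (d : G)⁻¹ = 1 by group)
          map_add' := fun s s' => Subtype.ext (by
            show (d : G) * ((s.toMul : G) * (s'.toMul : G)) * (d : G)⁻¹ =
              (d : G) * (s.toMul : G) * (d : G)⁻¹ * ((d : G) * (s'.toMul : G) * (d : G)⁻¹)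
            group) }
      map_one' := by
        ext s
        show (1 : G) * (s.toMul : G) * (1 : G)⁻¹ = (s.toMul : G)
        group
      map_mul' := fun d d' => by
        ext s
        show ((d * d' : D) : G) * (s.toMul : G) * ((d * d' : D) : G)⁻¹ =
          (d : G) * ((d' : G) * (s.toMul : G) * (d' : G)⁻¹) * (d : G)⁻¹
        rw [Subgroup.coe_mul]; group }
  obtain ⟨s₀, r₀, h₀⟩ := exists_base hS
  let e₀ : Additive E := Additive.ofMul ⟨s₀, (hEmem _).2 (Or.inr h₀.1)⟩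
  have he₀ : e₀ ≠ 0 := fun h => h₀.1.2.1 (congrArg (fun x : Additive E => (x.toMul : G)) h)
  haveI : Nontrivial (Additive E) := ⟨⟨e₀, 0, he₀⟩⟩
  have hE2 : ∀ s : Additive E, s + s = 0 := fun s => Subtype.ext (hEsq (s.toMul : G) s.toMul.2)
  let θ : AddMonoid.End (Additive E) := e ⟨k₀, hk₀K.1⟩
  have hcD : ∀ c ∈ Subgroup.zpowers k₀, c ∈ D := fun c hc => Subgroup.zpowers_le.2 hk₀K.1 hc
  have hcpow : ∀ (c : G) (hc : c ∈ Subgroup.zpowers k₀), e ⟨c, hcD c hc⟩ ∈ Subring.closure {θ} := by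
    intro c hc
    obtain ⟨i, rfl⟩ : ∃ i : ℕ, k₀ ^ i = c := mem_powers_iff_mem_zpowers.2 hc
    rw [show (⟨k₀ ^ i, hcD _ hc⟩ : D) = (⟨k₀, hk₀K.1⟩ : D) ^ i from rfl, map_pow]
    exact pow_mem (Subring.subset_closure (Set.mem_singleton _)) i
  have htr : ∀ x y : Additive E, x ≠ 0 → y ≠ 0 → ∃ c, ∃ hc : c ∈ Subgroup.zpowers k₀, e ⟨c, hcD c hc⟩ x = y := by
    intro x y hx hy
    have hx' : (x.toMul : G) ∈ Cfsg.involutionsIn (stabilizer G a : Set G) :=
      ((hEmem _).1 x.toMul.2).resolve_left fun h => hx (Additive.toMul.injective (Subtype.ext h))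
    have hy' : (y.toMul : G) ∈ Cfsg.involutionsIn (stabilizer G a : Set G) :=
      ((hEmem _).1 y.toMul.2).resolve_left fun h => hy (Additive.toMul.injective (Subtype.ext h))
    obtain ⟨k, hk, hkx⟩ := exists_conj_inverted hS hx' hy'
    rw [← hk₀] at hk
    refine ⟨k⁻¹, inv_mem hk, Additive.toMul.injective (Subtype.ext ?_)⟩
    show k⁻¹ * (x.toMul : G) * k⁻¹⁻¹ = _
    rw [inv_inv, hkx]
  have hcomm : ∀ r s : Subring.closure ({θ} : Set (AddMonoid.End (Additive E))), r * s = s * r :=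
    (Subring.closureCommRingOfComm (s := ({θ} : Set (AddMonoid.End (Additive E)))) (fun x hx y hy => by
      rw [Set.mem_singleton_iff] at hx hy
      rw [hx, hy])).mul_comm
  haveI : Finite (AddMonoid.End (Additive E)) := Finite.of_injective _ DFunLike.coe_injective
  set L := Subring.closure ({θ} : Set (AddMonoid.End (Additive E))) with hL
  haveI : Nontrivial L := ⟨⟨1, 0, fun h => he₀ (by
    have := congrArg (fun r : L => (r : AddMonoid.End (Additive E)) e₀) h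
    exact this)⟩⟩
  have hker : ∀ r : L, r ≠ 0 → ∀ x : Additive E, (r : AddMonoid.End (Additive E)) x = 0 → x = 0 := by
    intro r hr x hx
    by_contra hx0
    refine hr (Subtype.ext (DFunLike.ext _ _ fun y => ?_))
    by_cases hy : y = 0
    · rw [hy, map_zero, map_zero]
    obtain ⟨c, hc, rfl⟩ := htr x y hx0 hy
    show (r : AddMonoid.End (Additive E)) (e ⟨c, hcD c hc⟩ x) = 0
    have h1 := congrArg Subtype.val (hcomm r ⟨_, hcpow c hc⟩)
    refine (DFunLike.congr_fun h1 x).trans ?_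
    show e ⟨c, hcD c hc⟩ ((r : AddMonoid.End (Additive E)) x) = 0
    rw [hx, map_zero]
  haveI : NoZeroDivisors L := ⟨fun {r s} h => by
    by_contra hne
    push Not at hne
    refine he₀ (hker s hne.2 e₀ (hker r hne.1 _ ?_))
    simpa using! DFunLike.congr_fun (congrArg Subtype.val h) e₀⟩
  have h20 : (1 : L) + 1 = 0 := Subtype.ext (DFunLike.ext _ _ fun s => hE2 s)
  let θL : L := ⟨θ, Subring.subset_closure (Set.mem_singleton _)⟩
  have hvk : ∀ v ∈ V, v * k₀ * v⁻¹ ∈ Subgroup.zpowers k₀ := by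
    intro v hv
    have hvt : t * v * t⁻¹ = v := by
      rw [← Subgroup.mem_centralizer_singleton_iff.1 hv.2, mul_inv_cancel_right]
    have : v * k₀ * v⁻¹ ∈ Cfsg.invertedBy D t := by
      refine ⟨D.mul_mem (D.mul_mem hv.1 hk₀K.1) (D.inv_mem hv.1), ?_⟩
      calc t * (v * k₀ * v⁻¹) * t⁻¹ = (t * v * t⁻¹) * (t * k₀ * t⁻¹) * (t * v * t⁻¹)⁻¹ := by group
        _ = (v * k₀ * v⁻¹)⁻¹ := by rw [hvt, hk₀K.2]; group
    rw [← hk₀] at this
    exact this
  have hfrob : ∀ v ∈ V, ∃ j : ℕ, v * k₀ * v⁻¹ = k₀ ^ (2 ^ j) := by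
    intro v hv
    set u : D := ⟨v, hv.1⟩ with hu
    have h1 : e u * θ * e u⁻¹ ∈ L := by
      have h2 := hcpow _ (hvk v hv)
      rwa [show (⟨v * k₀ * v⁻¹, hcD _ (hvk v hv)⟩ : D) = u * ⟨k₀, hk₀K.1⟩ * u⁻¹ from rfl,
        map_mul, map_mul] at h2
    have hcl : ∀ r ∈ L, e u * r * e u⁻¹ ∈ L := by
      intro r hr
      induction hr using Subring.closure_induction with
      | mem x hx => rw [Set.mem_singleton_iff] at hx; rw [hx]; exact h1
      | zero => rw [mul_zero, zero_mul]; exact zero_mem _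
      | one => rw [mul_one, ← map_mul, mul_inv_cancel, map_one]; exact one_mem _
      | add x y _ _ hx hy => rw [mul_add, add_mul]; exact add_mem hx hy
      | neg x _ hx =>
        rw [show -x = x from DFunLike.ext _ _ fun s => neg_eq_of_add_eq_zero_left (hE2 _)]
        exact hx
      | mul x y _ _ hx hy =>
        rw [show e u * (x * y) * e u⁻¹ = (e u * x * e u⁻¹) * (e u * y * e u⁻¹) by
          simp only [mul_assoc]; rw [← mul_assoc (e u⁻¹) (e u), ← map_mul, inv_mul_cancel, map_one, one_mul]]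
        exact mul_mem hx hy
    let σ : L →+* L :=
      { toFun := fun r => ⟨e u * r * e u⁻¹, hcl r r.2⟩
        map_one' := Subtype.ext (by show e u * 1 * e u⁻¹ = 1; rw [mul_one, ← map_mul, mul_inv_cancel, map_one])
        map_mul' := fun x y => Subtype.ext (by
          show e u * ((x : AddMonoid.End (Additive E)) * y) * e u⁻¹ = (e u * x * e u⁻¹) * (e u * y * e u⁻¹)
          simp only [mul_assoc]; rw [← mul_assoc (e u⁻¹) (e u), ← map_mul, inv_mul_cancel, map_one, one_mul])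
        map_zero' := Subtype.ext (by show e u * 0 * e u⁻¹ = 0; rw [mul_zero, zero_mul])
        map_add' := fun x y => Subtype.ext (by
          show e u * ((x : AddMonoid.End (Additive E)) + y) * e u⁻¹ = e u * x * e u⁻¹ + e u * y * e u⁻¹
          rw [mul_add, add_mul]) }
    obtain ⟨j, hj⟩ := ringHom_eq_pow hcomm (fun x y h => mul_eq_zero.1 h) h20 σ
    have h3 : e u * θ * e u⁻¹ = θ ^ (2 ^ j) :=
      (congrArg Subtype.val (hj θL)).trans (SubmonoidClass.coe_pow _ _)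
    refine ⟨j, ?_⟩
    have h4 : e ⟨v * k₀ * v⁻¹, hcD _ (hvk v hv)⟩ = e ((⟨k₀, hk₀K.1⟩ : D) ^ (2 ^ (j : ℕ))) := by
      rw [show (⟨v * k₀ * v⁻¹, hcD _ (hvk v hv)⟩ : D) = u * ⟨k₀, hk₀K.1⟩ * u⁻¹ from rfl,
        map_mul, map_mul, map_pow]
      exact h3
    have h5 := congrArg (fun f : AddMonoid.End (Additive E) => ((f e₀).toMul : G)) h4
    have hA : (v * k₀ * v⁻¹) ∈ Cfsg.invertedBy D t := by rw [← hk₀]; exact hvk v hv
    have hB : k₀ ^ (2 ^ (j : ℕ)) ∈ Cfsg.invertedBy D t := by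
      rw [← hk₀]; exact pow_mem (Subgroup.mem_zpowers k₀) _
    have h6 := conj_base_injective hS h₀ (inverted_inv hA) (inverted_inv hB) (by
      have h7 : (v * k₀ * v⁻¹) * s₀ * (v * k₀ * v⁻¹)⁻¹ = k₀ ^ (2 ^ j) * s₀ * (k₀ ^ (2 ^ j))⁻¹ := h5
      simpa only [inv_inv] using h7)
    exact inv_injective h6
  -- `V` maps into the cyclic group generated by squaring
  let C := ↥(Subgroup.zpowers k₀)
  have hCodd : Odd (Nat.card C) :=
    hS.odd_card.of_dvd_nat (Subgroup.card_dvd_of_le (Subgroup.zpowers_le.2 hk₀K.1))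
  let χ : V →* MulAut C :=
    { toFun := fun v =>
        { toFun := fun c => ⟨(v : G) * c * (v : G)⁻¹, by
            obtain ⟨i, hi⟩ := Subgroup.mem_zpowers_iff.1 c.2
            rw [← hi, ← MulAut.conj_apply, map_zpow, MulAut.conj_apply]
            exact zpow_mem (hvk v v.2) i⟩
          invFun := fun c => ⟨(v : G)⁻¹ * c * v, by
            obtain ⟨i, hi⟩ := Subgroup.mem_zpowers_iff.1 c.2
            have h2 := hvk (v⁻¹ : V) (v⁻¹ : V).2
            rw [InvMemClass.coe_inv, inv_inv] at h2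
            rw [← hi, show (v : G)⁻¹ * k₀ ^ i * v = MulAut.conj (v : G)⁻¹ (k₀ ^ i) by simp, map_zpow]
            refine zpow_mem ?_ i
            simpa using h2⟩
          left_inv := fun c => Subtype.ext (by simp [mul_assoc])
          right_inv := fun c => Subtype.ext (by simp [mul_assoc])
          map_mul' := fun c d => Subtype.ext (by
            show (v : G) * ((c : G) * d) * (v : G)⁻¹ = (v : G) * c * (v : G)⁻¹ * ((v : G) * d * (v : G)⁻¹)
            group) }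
      map_one' := by ext c; simp
      map_mul' := fun v w => by ext c; simp [mul_assoc] }
  letI : CommGroup C := IsCyclic.commGroup
  let sqA : MulAut C := MulEquiv.ofBijective (powMonoidHom 2)
    (powCoprime (Nat.coprime_two_right.2 hCodd)).bijective
  have hsq : ∀ (j : ℕ) (c : C), (sqA ^ j) c = c ^ (2 ^ j) := fun j => by
    induction j with
    | zero => intro c; simp
    | succ j ih =>
      intro c
      rw [pow_succ', MulAut.mul_apply, ih]
      show (c ^ (2 ^ j)) ^ 2 = _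
      rw [← pow_mul, ← pow_succ]
  have hle : χ.range ≤ Subgroup.zpowers sqA := by
    rintro _ ⟨v, rfl⟩
    obtain ⟨j, hj⟩ := hfrob v v.2
    refine ⟨(j : ℤ), MulEquiv.ext fun c => ?_⟩
    show (sqA ^ (j : ℤ)) c = χ v c
    rw [zpow_natCast, hsq]
    obtain ⟨i, hi⟩ := Subgroup.mem_zpowers_iff.1 c.2
    refine Subtype.ext ?_
    show (c : G) ^ (2 ^ j) = (v : G) * c * (v : G)⁻¹
    rw [← hi, ← MulAut.conj_apply, map_zpow, MulAut.conj_apply, hj, ← zpow_natCast, ← zpow_natCast,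
      ← zpow_mul, ← zpow_mul, mul_comm]
  haveI : IsCyclic χ.range := Subgroup.isCyclic_of_le hle
  obtain ⟨⟨_, v₀, rfl⟩, hgen⟩ := IsCyclic.exists_generator (α := χ.range)
  refine ⟨v₀, v₀.2, le_antisymm (sup_le inf_le_left ((Subgroup.closure_le _).2 (Set.singleton_subset_iff.2 v₀.2)))
    fun v hv => ?_⟩
  obtain ⟨i, hi⟩ := Subgroup.mem_zpowers_iff.1 (hgen ⟨χ ⟨v, hv⟩, ⟨_, rfl⟩⟩)
  have hi' : χ v₀ ^ i = χ ⟨v, hv⟩ := by simpa using congrArg Subtype.val hi
  have hw : v * ((v₀ : G) ^ i)⁻¹ ∈ V ⊓ Subgroup.centralizer (Cfsg.invertedBy D t) := by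
    refine ⟨V.mul_mem hv (V.inv_mem (V.zpow_mem v₀.2 i)), Subgroup.mem_centralizer_iff.2 fun k hk => ?_⟩
    rw [← hk₀] at hk
    have h1 : χ (⟨v, hv⟩ * (v₀ ^ i)⁻¹) = 1 := by rw [map_mul, map_inv, map_zpow, hi', mul_inv_cancel]
    have h2 := congrArg Subtype.val (DFunLike.congr_fun h1 ⟨k, hk⟩)
    have h3 : ((⟨v, hv⟩ * (v₀ ^ i)⁻¹ : V) : G) * k * ((⟨v, hv⟩ * (v₀ ^ i)⁻¹ : V) : G)⁻¹ = k := h2
    rw [show ((⟨v, hv⟩ * (v₀ ^ i)⁻¹ : V) : G) = v * ((v₀ : G) ^ i)⁻¹ by simp, mul_inv_eq_iff_eq_mul] at h3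
    exact h3.symm
  have := Subgroup.mul_mem_sup hw (zpow_mem (Subgroup.subset_closure (Set.mem_singleton (v₀ : G))) i)
  rwa [inv_mul_cancel_right] at this

end CfsgLib.SharplyEven.RankOneField
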