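import Cfsg.Prelude.Def_Solvable
import Cfsg.Agent.Lib.HalfTransitive.PGroup
import Cfsg.Agent.Lib.Hall2.ConjAllSubgroups
import Cfsg.Agent.Lib.Cores.Fitting

/-!
Groups of odd order transitive on the non-zero vectors of an elementary abelian group: the Fitting
subgroup is cyclic and semiregular; if the group is soluble it is self-centralising with abelian quotient.
-/

set_option autoImplicit false
set_option linter.unusedSectionVars false

open scoped commutatorElement

namespace CfsgLib.SharplyEven.TransitiveOdd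

variable {D E : Type*} [Group D] [Finite D] [AddCommGroup E] [Finite E] [DistribMulAction D E] [FaithfulSMul D E]
  {q : ℕ} (hodd : Odd (Nat.card D)) (hq : q.Prime) (hE : ∀ e : E, q • e = 0)
  (htrans : ∀ a b : E, a ≠ 0 → b ≠ 0 → ∃ d : D, d • a = b)

include hodd hq hE htrans

/-- Normal `p`-subgroups are cyclic and semiregular. -/
theorem pCore_semiregular (p : ℕ) [Fact p.Prime] :
    IsCyclic ↥(Cfsg.pCore p D) ∧ ∀ g : ↥(Cfsg.pCore p D), g ≠ 1 → ∀ a : E, g • a = a → a = 0 := by
  classical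
  haveI : FaithfulSMul ↥(Cfsg.pCore p D) E :=
    ⟨fun {g h} e => Subtype.ext (eq_of_smul_eq_smul (α := E) fun a => e a)⟩
  have hP := CfsgLib.Cores.isPGroup_pCore (G := D) p
  by_cases hp2 : p = 2
  · subst hp2
    obtain ⟨k, hk⟩ := IsPGroup.iff_card.1 hP
    have hk0 : k = 0 := by
      by_contra hne
      have h2 : 2 ∣ Nat.card ↥(Cfsg.pCore 2 D) := hk ▸ dvd_pow_self 2 hne
      have h3 := Nat.odd_iff.1 hodd
      have h4 := h2.trans (Subgroup.card_subgroup_dvd_card _)
      omega
    rw [hk0, pow_zero] at hk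
    haveI := (Nat.card_eq_one_iff_unique.1 hk).1
    exact ⟨inferInstance, fun g hg => absurd (Subsingleton.elim g 1) hg⟩
  refine CfsgLib.HalfTransitive.fpf_of_const_stabilizer hp2 hP hq hE fun a b ha hb => ?_
  obtain ⟨d, rfl⟩ := htrans a b ha hb
  haveI : (Cfsg.pCore p D).Normal := inferInstance
  refine Nat.card_congr
    { toFun := fun g => ⟨⟨d * ((g : ↥(Cfsg.pCore p D)) : D) * d⁻¹,
        Subgroup.Normal.conj_mem inferInstance _ g.1.2 d⟩, ?_⟩
      invFun := fun g => ⟨⟨d⁻¹ * ((g : ↥(Cfsg.pCore p D)) : D) * d, by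
        have := Subgroup.Normal.conj_mem (inferInstance : (Cfsg.pCore p D).Normal) _ g.1.2 d⁻¹
        rwa [inv_inv] at this⟩, ?_⟩
      left_inv := fun g => Subtype.ext (Subtype.ext (by show d⁻¹ * (d * _ * d⁻¹) * d = _; group))
      right_inv := fun g => Subtype.ext (Subtype.ext (by show d * (d⁻¹ * _ * d) * d⁻¹ = _; group)) }
  · show (d * ((g : ↥(Cfsg.pCore p D)) : D) * d⁻¹) • d • a = d • a
    rw [mul_smul, mul_smul, inv_smul_smul]; exact congrArg (d • ·) g.2
  · show (d⁻¹ * ((g : ↥(Cfsg.pCore p D)) : D) * d) • a = a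
    rw [mul_smul, mul_smul, inv_smul_eq_iff]; exact g.2

theorem fitting_semiregular :
    IsCyclic ↥(Cfsg.fittingSubgroup D) ∧
      ∀ g ∈ Cfsg.fittingSubgroup D, g ≠ 1 → ∀ a : E, g • a = a → a = 0 := by
  classical
  haveI := CfsgLib.Cores.fittingSubgroup_normal D
  haveI := CfsgLib.Cores.isNilpotent_fittingSubgroup (G := D)
  have hcyc : IsCyclic ↥(Cfsg.fittingSubgroup D) :=
    CfsgLib.Hall2.isCyclic_of_nilpotent_normal fun r hr _ =>
      haveI := Fact.mk hr; (pCore_semiregular hodd hq hE htrans r).1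
  refine ⟨hcyc, fun g hg hg1 a ha => ?_⟩
  obtain ⟨r, hr, hrd⟩ := Nat.exists_prime_and_dvd (n := orderOf g) (fun e => hg1 (orderOf_eq_one_iff.1 e))
  haveI := Fact.mk hr
  set x := g ^ (orderOf g / r) with hx
  have hxo : orderOf x = r := by
    rw [hx]
    exact orderOf_pow_orderOf_div (orderOf_pos g).ne' hrd
  have hxF : x ∈ Cfsg.fittingSubgroup D := pow_mem hg _
  have hmem : x ∈ Cfsg.pCore r D := by
    refine CfsgLib.Cores.le_pCore_of_subnormal ?_
      (IsPGroup.of_card (n := 1) (by rw [Nat.card_zpowers, hxo, pow_one])) (Subgroup.mem_zpowers x)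
    refine Subgroup.IsSubnormal.trans (Subgroup.zpowers_le.2 hxF) ?_ (inferInstance : (Cfsg.fittingSubgroup D).Normal).isSubnormal
    haveI : IsMulCommutative ↥(Cfsg.fittingSubgroup D) := inferInstance
    exact (inferInstance : ((Subgroup.zpowers x).subgroupOf (Cfsg.fittingSubgroup D)).Normal).isSubnormal
  refine (pCore_semiregular hodd hq hE htrans r).2 ⟨x, hmem⟩
    (fun e => hr.ne_one ?_) a ?_
  · rw [← hxo, show x = 1 from congrArg Subtype.val e, orderOf_one]
  · show x • a = a
    rw [hx]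
    exact (fixed_pow ha _)
where
  fixed_pow {g : D} {a : E} (ha : g • a = a) : ∀ n : ℕ, g ^ n • a = a
    | 0 => by rw [pow_zero, one_smul]
    | n + 1 => by rw [pow_succ, mul_smul, ha, fixed_pow ha n]

omit hodd hq hE htrans in
theorem commutator_le_fitting (hsol : Group.IsSolvable D) (hcyc : IsCyclic ↥(Cfsg.fittingSubgroup D)) :
    commutator D ≤ Cfsg.fittingSubgroup D := by
  haveI := hsol
  haveI := CfsgLib.Cores.fittingSubgroup_normal D
  refine le_trans (Subgroup.commutator_le.2 fun x _ y _ => ?_) CfsgLib.Cores.centralizer_fittingSubgroup_le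
  refine Subgroup.mem_centralizer_iff.2 fun f hf => ?_
  have h1 : MulAut.conjNormal (H := Cfsg.fittingSubgroup D) ⁅x, y⁆ = 1 := by
    rw [map_commutatorElement, commutatorElement_eq_one_iff_mul_comm]
    exact CfsgLib.Hall2.commute_mulAut_of_isCyclic _ _
  have h2 := congrArg Subtype.val (DFunLike.congr_fun h1 ⟨f, hf⟩)
  rw [MulAut.conjNormal_apply] at h2
  simp only [MulAut.one_apply] at h2
  exact (mul_inv_eq_iff_eq_mul.1 h2).symm

end CfsgLib.SharplyEven.TransitiveOdd
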