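import Cfsg.Prelude.Def_LieRecognition
import Cfsg.Agent.Lib.RankOne.Structure
import Cfsg.Agent.Lib.RankOne.Nilpotent
import Cfsg.Agent.Lib.SharplyEven.TransitiveOdd

/-!
The two-point stabiliser of a rank-one set-up acting on the involutions of the point stabiliser:
the inverted set is a cyclic normal subgroup, provided the two-point stabiliser is soluble.
-/

set_option autoImplicit false
set_option linter.unusedSectionVars false

namespace CfsgLib.SharplyEven.RankOneField

open MulAction CfsgLib.RankOne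

variable {G Ω : Type*} [Group G] [Finite G] [MulAction G Ω] {a : Ω} {t : G} {Q : Subgroup G}

/-- The involutions of `G_a` together with `1`, as a subgroup. -/
theorem exists_invSubgroup (hS : Cfsg.IsRankOneSetup G Ω a t Q)
    (h2 : ∃ x y : G, x ≠ 1 ∧ y ≠ 1 ∧ x ≠ y ∧ x * x = 1 ∧ y * y = 1 ∧ x * y = y * x) :
    ∃ E : Subgroup G, E ≤ Q ∧ (∀ s, s ∈ E ↔ s = 1 ∨ s ∈ Cfsg.involutionsIn (stabilizer G a : Set G)) ∧
      (∀ s ∈ E, s * s = 1) ∧ (∀ s ∈ E, ∀ s' ∈ E, s * s' = s' * s) ∧
      ∀ h : G, h • a = a → ∀ s ∈ E, h * s * h⁻¹ ∈ E := by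
  have hsq : ∀ s : G, (s = 1 ∨ s ∈ Cfsg.involutionsIn (stabilizer G a : Set G)) → s * s = 1 := by
    rintro s (rfl | hs)
    · rw [one_mul]
    · exact hs.2.2
  let E : Subgroup G :=
    { carrier := {s | s = 1 ∨ s ∈ Cfsg.involutionsIn (stabilizer G a : Set G)}
      one_mem' := Or.inl rfl
      mul_mem' := by
        intro s s' hs hs'
        rcases hs with rfl | hs
        · rw [one_mul]; exact hs'
        rcases hs' with rfl | hs'
        · rw [mul_one]; exact Or.inr hs
        by_cases h : s * s' = 1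
        · exact Or.inl h
        · exact Or.inr (involutions_mul hS h2 hs hs' h)
      inv_mem' := fun {s} hs => by
        show s⁻¹ = 1 ∨ _
        rw [inv_eq_of_mul_eq_one_right (hsq s hs)]
        exact hs }
  refine ⟨E, ?_, fun s => Iff.rfl, hsq, ?_, fun h hh s hs => ?_⟩
  · rintro s (rfl | hs)
    · exact one_mem Q
    · exact involution_mem_Q hS hs.1 hs.2.2
  · intro s hs s' hs'
    have h3 := hsq _ (E.mul_mem hs hs')
    calc s * s' = (s * s')⁻¹ := (inv_eq_of_mul_eq_one_right h3).symm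
      _ = s' * s := by rw [mul_inv_rev, inv_eq_of_mul_eq_one_right (hsq s hs),
          inv_eq_of_mul_eq_one_right (hsq s' hs')]
  · rcases hs with rfl | hs
    · exact Or.inl (by group)
    · refine Or.inr ?_
      have := conj_involutionsIn hs (d := h⁻¹) (inv_smul_eq_iff.2 hh.symm)
      rwa [inv_inv] at this

theorem odd_sqrt_mem {H : Type*} [Group H] [Finite H] (hodd : Odd (Nat.card H)) (S : Subgroup H) {x : H}
    (hx : x * x ∈ S) : x ∈ S := by
  obtain ⟨k, hk⟩ := hodd
  have h1 : x = (x * x) ^ (k + 1) := by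
    rw [← sq, ← pow_mul, show 2 * (k + 1) = Nat.card H + 1 by omega, pow_succ, pow_card_eq_one', one_mul]
  rw [h1]
  exact S.pow_mem hx _

/-- With a soluble two-point stabiliser, every inverted element is a power of one of them, up to nothing. -/
theorem exists_generator (hS : Cfsg.IsRankOneSetup G Ω a t Q)
    (h2 : ∃ x y : G, x ≠ 1 ∧ y ≠ 1 ∧ x ≠ y ∧ x * x = 1 ∧ y * y = 1 ∧ x * y = y * x)
    (hsol : Group.IsSolvable ↥(twoPoint G a t)) :
    ∃ k₀ ∈ Cfsg.invertedBy (twoPoint G a t) t,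
      (Subgroup.zpowers k₀ : Set G) = Cfsg.invertedBy (twoPoint G a t) t := by
  classical
  obtain ⟨E, hEQ, hEmem, hEsq, hEcomm, hEconj⟩ := exists_invSubgroup hS h2
  letI : CommGroup E :=
    { (inferInstance : Group E) with mul_comm := fun s s' => Subtype.ext (hEcomm s s.2 s' s'.2) }
  set D := twoPoint G a t with hD
  let φ : D →* MulAut E :=
    MonoidHom.mk' (fun d =>
      { toFun := fun s => ⟨(d : G) * s * (d : G)⁻¹, hEconj d d.2.1 s s.2⟩
        invFun := fun s => ⟨(d : G)⁻¹ * s * d, by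
          have := hEconj (d : G)⁻¹ (inv_smul_eq_iff.2 (show (d : G) • a = a from d.2.1).symm) s s.2
          rwa [inv_inv] at this⟩
        left_inv := fun s => Subtype.ext (by simp [mul_assoc])
        right_inv := fun s => Subtype.ext (by simp [mul_assoc])
        map_mul' := fun s s' => Subtype.ext (by simp [mul_assoc]) })
      fun d d' => MulEquiv.ext fun s => Subtype.ext (by
        show ((d * d' : D) : G) * s * ((d * d' : D) : G)⁻¹ = (d : G) * ((d' : G) * s * (d' : G)⁻¹) * (d : G)⁻¹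
        rw [Subgroup.coe_mul]; group)
  obtain ⟨s₀, r₀, h₀⟩ := exists_base hS
  let e₀ : E := ⟨s₀, (hEmem _).2 (Or.inr h₀.1)⟩
  have he₀ : Additive.ofMul e₀ ≠ 0 := fun h => h₀.1.2.1 (congrArg (fun x : Additive E => (x.toMul : G)) h)
  -- elements fixing `e₀` centralise `t`
  have hfixV : ∀ d : D, φ d e₀ = e₀ → (d : G) * t = t * d := fun d hd => by
    have h1 : (d : G) * s₀ * (d : G)⁻¹ = s₀ := congrArg Subtype.val hd
    exact commute_t_of_commute_base hS h₀ d.2 (mul_inv_eq_iff_eq_mul.1 h1)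
  have hfixV' : ∀ d : D, (d : G) * t = t * d → φ d e₀ = e₀ := fun d hd =>
    Subtype.ext (mul_inv_eq_iff_eq_mul.2 (commute_base_of_commute_t hS h₀ d.2 hd))
  let Db := D ⧸ φ.ker
  letI act : DistribMulAction Db (Additive E) :=
    { smul := fun x s => Additive.ofMul (QuotientGroup.kerLift φ x s.toMul)
      one_smul := fun s => by
        show Additive.ofMul (QuotientGroup.kerLift φ 1 s.toMul) = s
        rw [map_one]; rfl
      mul_smul := fun x y s => by
        show Additive.ofMul (QuotientGroup.kerLift φ (x * y) s.toMul) = _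
        rw [map_mul]; rfl
      smul_zero := fun x => by
        show Additive.ofMul (QuotientGroup.kerLift φ x (Additive.toMul (0 : Additive E))) = 0
        rw [toMul_zero, map_one]; rfl
      smul_add := fun x s s' => by
        show Additive.ofMul (QuotientGroup.kerLift φ x (Additive.toMul (s + s'))) = _
        rw [toMul_add, map_mul]; rfl }
  haveI : FaithfulSMul Db (Additive E) :=
    ⟨fun {x y} h => QuotientGroup.kerLift_injective φ (MulEquiv.ext fun s => h (Additive.ofMul s))⟩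
  have hDodd : Odd (Nat.card D) := hS.odd_card
  have hodd : Odd (Nat.card Db) := hDodd.of_dvd_nat (Subgroup.card_quotient_dvd_card _)
  have hE2 : ∀ e : Additive E, 2 • e = 0 := fun e => by
    rw [two_nsmul]
    exact Subtype.ext (hEsq (e.toMul : G) e.toMul.2)
  have htrans : ∀ x y : Additive E, x ≠ 0 → y ≠ 0 → ∃ d : Db, d • x = y := by
    intro x y hx hy
    have hx' : (x.toMul : G) ∈ Cfsg.involutionsIn (stabilizer G a : Set G) :=
      ((hEmem _).1 x.toMul.2).resolve_left fun h => hx (Additive.toMul.injective (Subtype.ext h))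
    have hy' : (y.toMul : G) ∈ Cfsg.involutionsIn (stabilizer G a : Set G) :=
      ((hEmem _).1 y.toMul.2).resolve_left fun h => hy (Additive.toMul.injective (Subtype.ext h))
    obtain ⟨k, hk, hkx⟩ := exists_conj_inverted hS hx' hy'
    refine ⟨QuotientGroup.mk (⟨k⁻¹, D.inv_mem hk.1⟩ : D), Additive.toMul.injective (Subtype.ext ?_)⟩
    show k⁻¹ * (x.toMul : G) * k⁻¹⁻¹ = _
    rw [inv_inv, hkx]
  obtain ⟨hFc, hFf⟩ := TransitiveOdd.fitting_semiregular hodd Nat.prime_two hE2 htrans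
  haveI : Group.IsSolvable Db := by
    haveI := hsol
    exact solvable_of_surjective (QuotientGroup.mk'_surjective φ.ker)
  set F := Cfsg.fittingSubgroup Db with hF
  have hCF : Subgroup.centralizer (F : Set Db) ≤ F := CfsgLib.Cores.centralizer_fittingSubgroup_le
  haveI hFn : F.Normal := CfsgLib.Cores.fittingSubgroup_normal Db
  haveI := hFc
  -- conjugation by `t`
  let c : D ≃* D :=
    { toFun := fun d => ⟨t * d * t⁻¹, twoPoint_conj hS d.2⟩
      invFun := fun d => ⟨t * d * t⁻¹, twoPoint_conj hS d.2⟩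
      left_inv := fun d => Subtype.ext (by
        show t * (t * (d : G) * t⁻¹) * t⁻¹ = d
        rw [t_inv hS, show t * (t * (d : G) * t) * t = (t * t) * d * (t * t) by group, hS.mul_self, one_mul, mul_one])
      right_inv := fun d => Subtype.ext (by
        show t * (t * (d : G) * t⁻¹) * t⁻¹ = d
        rw [t_inv hS, show t * (t * (d : G) * t) * t = (t * t) * d * (t * t) by group, hS.mul_self, one_mul, mul_one])
      map_mul' := fun d d' => Subtype.ext (by
        show t * ((d : G) * d') * t⁻¹ = t * d * t⁻¹ * (t * d' * t⁻¹)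
        group) }
  have hker : ∀ w : D, w ∈ φ.ker → (w : G) * t = t * w := fun w hw =>
    hfixV w (DFunLike.congr_fun (MonoidHom.mem_ker.1 hw) e₀)
  have hcker : φ.ker.map (c : D →* D) = φ.ker := by
    have h1 : ∀ w ∈ φ.ker, c w = w := fun w hw => Subtype.ext (mul_inv_eq_iff_eq_mul.2 (hker w hw).symm)
    ext w
    constructor
    · rintro ⟨v, hv, rfl⟩
      show c v ∈ φ.ker
      rw [h1 v hv]; exact hv
    · exact fun hw => ⟨w, hw, h1 w hw⟩
  let τ : Db ≃* Db := QuotientGroup.congr φ.ker φ.ker c hcker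
  have hτmk : ∀ d : D, τ (QuotientGroup.mk d) = QuotientGroup.mk (c d) := fun d => rfl
  have hττ : ∀ x, τ (τ x) = x := fun x => by
    obtain ⟨d, rfl⟩ := QuotientGroup.mk_surjective x
    rw [hτmk, hτmk]
    exact congrArg _ (c.left_inv d)
  have hτF : ∀ x ∈ F, τ x ∈ F := fun x hx => by
    have h1 := CfsgLib.Cores.map_fittingSubgroup_equiv τ
    rw [hF, ← h1]
    exact ⟨x, hx, rfl⟩
  have hfac : ∀ x : Db, ∃ v k : D, (v : G) * t = t * v ∧ (k : G) ∈ Cfsg.invertedBy D t ∧
      x = QuotientGroup.mk v * QuotientGroup.mk k := by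
    intro x
    obtain ⟨d, rfl⟩ := QuotientGroup.mk_surjective x
    obtain ⟨⟨v, k⟩, ⟨hv, hk, hvk⟩, -⟩ := existsUnique_factor hS.mul_self hS.odd_card
      (fun _ h => twoPoint_conj hS h) d.2
    refine ⟨⟨v, hv.1⟩, ⟨k, hk.1⟩, Subgroup.mem_centralizer_singleton_iff.1 hv.2, hk, ?_⟩
    rw [← QuotientGroup.mk_mul]
    exact congrArg _ (Subtype.ext hvk)
  have hτv : ∀ v : D, (v : G) * t = t * v → τ (QuotientGroup.mk v) = QuotientGroup.mk v := fun v hv => by
    rw [hτmk]
    exact congrArg _ (Subtype.ext (mul_inv_eq_iff_eq_mul.2 hv.symm))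
  have hτk : ∀ k : D, (k : G) ∈ Cfsg.invertedBy D t → τ (QuotientGroup.mk k) = (QuotientGroup.mk k)⁻¹ :=
    fun k hk => by
      rw [hτmk, ← QuotientGroup.mk_inv]
      exact congrArg _ (Subtype.ext hk.2)
  have hFcomm : ∀ x ∈ F, ∀ y ∈ F, x * y = y * x := fun x hx y hy => by
    haveI : IsMulCommutative F := inferInstance
    exact congrArg Subtype.val (mul_comm' (⟨x, hx⟩ : F) ⟨y, hy⟩)
  -- `τ` has no fixed points on `F`, so inverts it
  have hfixF : ∀ f ∈ F, τ f = f → f = 1 := by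
    intro f hf hτf
    obtain ⟨v, k, hv, hk, rfl⟩ := hfac f
    rw [map_mul, hτv v hv, hτk k hk] at hτf
    have h1 := mul_left_cancel hτf
    have h2 : (QuotientGroup.mk (k * k) : Db) = 1 := by
      rw [QuotientGroup.mk_mul]
      nth_rewrite 1 [← h1]
      exact inv_mul_cancel _
    have h3 := hker _ ((QuotientGroup.eq_one_iff _).1 h2)
    have h4 : (k : G) = 1 := by
      have e1 : t * ((k : G) * k) * t⁻¹ = (k : G) * k := by rw [mul_inv_eq_iff_eq_mul]; exact h3.symm
      have e2 : t * ((k : G) * k) * t⁻¹ = ((k : G) * k)⁻¹ := by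
        calc t * ((k : G) * k) * t⁻¹ = (t * k * t⁻¹) * (t * k * t⁻¹) := by group
          _ = _ := by rw [hk.2, mul_inv_rev]
      have e3 := eq_one_of_mul_self_eq_one hS.odd_card (D.mul_mem hk.1 hk.1)
        (by rw [← mul_eq_one_iff_eq_inv.2 (e1.symm.trans e2)])
      exact eq_one_of_mul_self_eq_one hS.odd_card hk.1 e3
    have h5 : k = 1 := Subtype.ext h4
    rw [h5, QuotientGroup.mk_one, mul_one] at hf ⊢
    by_contra hne
    refine he₀ (hFf _ hf hne (Additive.ofMul e₀) ?_)
    show Additive.ofMul (φ v e₀) = _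
    rw [hfixV' v hv]
  have hinv : ∀ f ∈ F, τ f = f⁻¹ := by
    intro f hf
    have h1 := hfixF (f * τ f) (F.mul_mem hf (hτF f hf)) (by
      rw [map_mul, hττ]; exact hFcomm _ (hτF f hf) _ hf)
    exact eq_inv_of_mul_eq_one_right h1
  have hKF : ∀ k : D, (k : G) ∈ Cfsg.invertedBy D t → (QuotientGroup.mk k : Db) ∈ F := by
    intro k hk
    refine odd_sqrt_mem hodd F (hCF (Subgroup.mem_centralizer_iff.2 fun f hf => ?_))
    set x : Db := QuotientGroup.mk k
    have h1 := hinv _ (hFn.conj_mem f hf x)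
    rw [map_mul, map_mul, map_inv, hτk k hk, inv_inv, hinv f hf, mul_inv_rev, mul_inv_rev, inv_inv] at h1
    have h2 : f⁻¹ * (x * x) = x * x * f⁻¹ := by
      calc f⁻¹ * (x * x) = x * (x⁻¹ * f⁻¹ * x) * x := by group
        _ = x * x * f⁻¹ := by rw [show x⁻¹ * f⁻¹ * x = x * (f⁻¹ * x⁻¹) by
              rw [← h1, mul_assoc]]; group
    have h3 := (show Commute f⁻¹ (x * x) from h2).inv_left
    rwa [inv_inv] at h3
  obtain ⟨⟨g, hg⟩, hgen⟩ := IsCyclic.exists_generator (α := F)
  obtain ⟨v, k₀, hv, hk₀, rfl⟩ := hfac g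
  have hv1 : (QuotientGroup.mk v : Db) = 1 := by
    have hvF : (QuotientGroup.mk v : Db) ∈ F := by
      simpa using F.mul_mem hg (F.inv_mem (hKF k₀ hk₀))
    by_contra hne
    refine he₀ (hFf _ hvF hne (Additive.ofMul e₀) ?_)
    show Additive.ofMul (φ v e₀) = _
    rw [hfixV' v hv]
  have hpow : ∀ i : ℤ, (k₀ : G) ^ i ∈ Cfsg.invertedBy D t := fun i => by
    refine ⟨D.zpow_mem hk₀.1 i, ?_⟩
    rw [← MulAut.conj_apply, map_zpow, MulAut.conj_apply, hk₀.2, inv_zpow]
  refine ⟨k₀, hk₀, Set.ext fun k => ⟨?_, fun hk => ?_⟩⟩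
  · rintro ⟨i, rfl⟩
    exact hpow i
  obtain ⟨i, hi⟩ := Subgroup.mem_zpowers_iff.1 (hgen ⟨_, hKF ⟨k, hk.1⟩ hk⟩)
  have hi' : (QuotientGroup.mk (⟨k, hk.1⟩ * (k₀ ^ i)⁻¹ : D) : Db) = 1 := by
    have := congrArg Subtype.val hi
    simp only [SubgroupClass.coe_zpow, hv1, one_mul] at this
    rw [QuotientGroup.mk_mul, QuotientGroup.mk_inv, QuotientGroup.mk_zpow, this, mul_inv_cancel]
  have hw := hker _ ((QuotientGroup.eq_one_iff _).1 hi')
  have hkD : k ∈ D := hk.1
  obtain ⟨p, -, huniq⟩ := existsUnique_factor hS.mul_self hS.odd_card (fun _ h => twoPoint_conj hS h) hkD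
  have p1 := huniq ((1 : G), k) ⟨one_mem _, hk, (one_mul k).symm⟩
  have p2 := huniq ((((⟨k, hk.1⟩ * (k₀ ^ i)⁻¹ : D) : G)), (k₀ : G) ^ i)
    ⟨⟨(⟨k, hk.1⟩ * (k₀ ^ i)⁻¹ : D).2, Subgroup.mem_centralizer_singleton_iff.2 hw⟩, hpow i, by simp⟩
  exact ⟨i, (congrArg Prod.snd (p1.trans p2.symm)).symm⟩

end CfsgLib.SharplyEven.RankOneField
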