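import Cfsg.Agent.Lib.Quasithin.FieldModel
import Cfsg.Agent.Lib.Frobenius.Kernel
import Cfsg.Agent.Lib.NormalPComplement.FixedPointFree
import Cfsg.Agent.Lib.Cores.FPF
import Mathlib.GroupTheory.SpecificGroups.ZGroup
import Mathlib.FieldTheory.Fixed
import Mathlib.Tactic

/-!
Doubly transitive groups with a regular normal subgroup in which no non-identity element fixes
three points: the degree is `2 ^ p`.
-/

set_option autoImplicit false

open MulAction

namespace CfsgLib.SharplyEven

theorem exists_prime_degree {G Ω : Type*} [Group G] [MulAction G Ω] [Fintype Ω] [FaithfulSMul G Ω]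
    (h2 : MulAction.IsMultiplyPretransitive G Ω 2)
    (h3 : ∀ g : G, ∀ a b c : Ω, a ≠ b → b ≠ c → a ≠ c → g • a = a → g • b = b → g • c = c → g = 1)
    (hfix : ∃ g : G, g ≠ 1 ∧ ∃ a b : Ω, a ≠ b ∧ g • a = a ∧ g • b = b)
    (N : Subgroup G) [hN : N.Normal] (hNt : MulAction.IsPretransitive N Ω)
    (hNr : ∀ a : Ω, MulAction.stabilizer N a = ⊥) :
    ∃ p : ℕ, p.Prime ∧ Fintype.card Ω = 2 ^ p := by
  classical
  haveI : Finite G := Finite.of_injective (MulAction.toPermHom G Ω) MulAction.toPerm_injective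
  obtain ⟨g₀, hg₀, a, b, hab, hga, hgb⟩ := hfix
  have h2' : ∀ {x y z w : Ω}, x ≠ y → z ≠ w → ∃ g : G, g • x = z ∧ g • y = w :=
    fun {x y z w} h1 h4 => (MulAction.is_two_pretransitive_iff.1 h2) h1 h4
  have hreg : ∀ u ∈ N, ∀ x : Ω, u • x = x → u = 1 := fun u hu x hx => by
    have h1 : (⟨u, hu⟩ : N) ∈ stabilizer N x := hx
    rw [hNr x, Subgroup.mem_bot] at h1
    exact congrArg Subtype.val h1
  have hsame : ∀ u ∈ N, ∀ v ∈ N, ∀ p : Ω, u • p = v • p → u = v := by
    intro u hu v hv p e
    exact (inv_mul_eq_one.1 (hreg _ (mul_mem (inv_mem hv) hu) p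
      (by rw [mul_smul, e, inv_smul_smul]))).symm
  obtain ⟨⟨v, hv⟩, hva⟩ := MulAction.exists_smul_eq N a b
  change v • a = b at hva
  have hv1 : v ≠ 1 := fun e => hab (by rw [← hva, e, one_smul])
  -- all non-identity elements are conjugate under the point stabiliser
  have hall : ∀ u ∈ N, u ≠ 1 → ∃ f : G, f • a = a ∧ f * v * f⁻¹ = u := by
    intro u hu hu1
    obtain ⟨f, f1, f2⟩ := h2' hab (show a ≠ u • a from fun e => hu1 (hreg u hu a e.symm))
    refine ⟨f, f1, hsame _ (hN.conj_mem v hv f) u hu a ?_⟩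
    rw [mul_smul, mul_smul, inv_smul_eq_iff.2 f1.symm, hva, f2]
  have horder : ∀ u ∈ N, u ≠ 1 → orderOf u = orderOf v := by
    intro u hu hu1
    obtain ⟨f, -, rfl⟩ := hall u hu hu1
    rw [show f * v * f⁻¹ = MulAut.conj f v from rfl, MulEquiv.orderOf_eq]
  have hgv : g₀ * v * g₀⁻¹ = v := hsame _ (hN.conj_mem v hv g₀) v hv a
    (by rw [mul_smul, mul_smul, inv_smul_eq_iff.2 hga.symm, hva, hgb])
  have hv2 : v * v = 1 := by
    by_contra hvv
    have h1 : g₀ • ((v * v) • a) = (v * v) • a := by
      conv_rhs => rw [← show g₀ * (v * v) * g₀⁻¹ = v * v from by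
        rw [show g₀ * (v * v) * g₀⁻¹ = (g₀ * v * g₀⁻¹) * (g₀ * v * g₀⁻¹) by group, hgv]]
      rw [mul_smul _ g₀⁻¹, inv_smul_eq_iff.2 hga.symm, mul_smul g₀]
    refine hg₀ (h3 g₀ a b ((v * v) • a) hab ?_ ?_ hga hgb h1)
    · intro e
      rw [mul_smul, ← hva] at e
      exact hv1 (hreg v hv _ e.symm)
    · intro e
      exact hvv (hreg _ (mul_mem hv hv) a e.symm)
  haveI : Fact (Nat.Prime 2) := ⟨Nat.prime_two⟩
  have hvo : orderOf v = 2 := orderOf_eq_prime (by rw [pow_two, hv2]) hv1
  have hsq : ∀ u ∈ N, u * u = 1 := by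
    intro u hu
    rcases eq_or_ne u 1 with rfl | hu1
    · exact one_mul 1
    · rw [← pow_two, ← hvo, ← horder u hu hu1, pow_orderOf_eq_one]
  have hcommN : ∀ u ∈ N, ∀ u' ∈ N, u * u' = u' * u := by
    intro u hu u' hu'
    have h1 := hsq _ (mul_mem hu hu')
    rw [← inv_eq_of_mul_eq_one_right h1, mul_inv_rev, inv_eq_of_mul_eq_one_right (hsq u hu),
      inv_eq_of_mul_eq_one_right (hsq u' hu')]
  have hNcard : Nat.card N = Fintype.card Ω := by
    rw [← Nat.card_eq_fintype_card]
    refine Nat.card_eq_of_bijective (fun u : N => (u : G) • a) ⟨fun u w e => Subtype.ext (hsame u u.2 w w.2 a e),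
      fun x => MulAction.exists_smul_eq N a x⟩
  obtain ⟨k, hk⟩ : ∃ k, Nat.card N = 2 ^ k := (IsPGroup.iff_card).1 (show IsPGroup 2 N from fun u =>
    ⟨1, Subtype.ext (by rw [pow_one, pow_two]; exact hsq u u.2)⟩)
  have hk2 : 2 ≤ k := by
    by_contra hlt
    have h1 : Fintype.card Ω ≤ 2 := by
      rw [← hNcard, hk]
      calc 2 ^ k ≤ 2 ^ 1 := Nat.pow_le_pow_right (by norm_num) (by omega)
        _ = 2 := by norm_num
    refine hg₀ (FaithfulSMul.eq_of_smul_eq_smul fun x : Ω => ?_)
    rw [one_smul]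
    have h4 : ({a, b} : Finset Ω) = Finset.univ := Finset.eq_univ_of_card _
      (le_antisymm (Finset.card_le_univ _) (by rw [Finset.card_pair hab]; omega))
    have := h4 ▸ Finset.mem_univ x
    simp only [Finset.mem_insert, Finset.mem_singleton] at this
    rcases this with rfl | rfl
    · exact hga
    · exact hgb
  rw [← hNcard, hk]
  refine ⟨k, ?_, rfl⟩
  -- an element of prime order fixing two points
  set H : Subgroup G := stabilizer G a ⊓ stabilizer G b with hH
  have hHne : Nat.card H ≠ 1 := fun e => hg₀ ((Subgroup.eq_bot_iff_forall H).1 (Subgroup.card_eq_one.1 e) g₀ ⟨hga, hgb⟩)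
  set r := (Nat.card H).minFac with hr
  haveI : Fact r.Prime := ⟨Nat.minFac_prime hHne⟩
  obtain ⟨⟨g, hgH⟩, hgo⟩ := exists_prime_orderOf_dvd_card' (G := H) r (Nat.minFac_dvd _)
  rw [← Subgroup.orderOf_coe] at hgo
  simp only at hgo
  obtain ⟨hga', hgb'⟩ := hgH
  change g • a = a at hga'
  change g • b = b at hgb'
  have hg1 : g ≠ 1 := fun e => by
    rw [e, orderOf_one] at hgo
    exact (Fact.out : r.Prime).ne_one hgo.symm
  have hgfix : ∀ u ∈ N, g * u * g⁻¹ = u → u = 1 ∨ u = v := by
    intro u hu he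
    have h1 : g • (u • a) = u • a := by
      conv_rhs => rw [← he, mul_smul, mul_smul, inv_smul_eq_iff.2 hga'.symm]
    by_contra hc
    simp only [not_or] at hc
    exact hg1 (h3 g a b (u • a) hab (fun e => hc.2 (hsame u hu v hv a (e.symm.trans hva.symm)))
      (fun e => hc.1 (hreg u hu a e.symm)) hga' hgb' h1)
  rcases eq_or_ne r 2 with hr2 | hr2
  · -- an involution fixes at least the square root of the degree
    have hgg : g * g = 1 := by rw [← pow_two, ← hr2, ← hgo, pow_orderOf_eq_one]
    have hgi : g⁻¹ = g := inv_eq_of_mul_eq_one_right hgg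
    have hcount : Nat.card N ≤ 4 := by
      haveI := Fintype.ofFinite N
      rw [Nat.card_eq_fintype_card, ← Finset.card_univ]
      let φ : N → G := fun u => (u : G) * (g * u * g⁻¹)
      have hgN : ∀ u ∈ N, g * u * g⁻¹ ∈ N := fun u hu => hN.conj_mem u hu g
      refine le_trans (Finset.card_le_mul_card_image (f := φ) Finset.univ 2 fun y hy => ?_) ?_
      · obtain ⟨u₀, -, rfl⟩ := Finset.mem_image.1 hy
        refine le_trans (Finset.card_le_card (t := {u₀, ⟨v * u₀, mul_mem hv u₀.2⟩}) fun u hu => ?_) Finset.card_le_two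
        simp only [Finset.mem_filter, Finset.mem_univ, true_and, φ] at hu
        set w' : G := (u : G) * u₀ with hw'
        have hw'N : w' ∈ N := mul_mem u.2 u₀.2
        have h1 : w' * (g * w' * g⁻¹) = 1 := by
          calc w' * (g * w' * g⁻¹) = (u : G) * ((u₀ : G) * (g * u * g⁻¹)) * (g * u₀ * g⁻¹) := by rw [hw']; group
            _ = (u : G) * ((g * u * g⁻¹) * u₀) * (g * u₀ * g⁻¹) := by rw [hcommN _ u₀.2 _ (hgN _ u.2)]
            _ = ((u : G) * (g * u * g⁻¹)) * ((u₀ : G) * (g * u₀ * g⁻¹)) := by group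
            _ = 1 := by rw [hu]; exact hsq _ (mul_mem u₀.2 (hgN _ u₀.2))
        have h4 : g * w' * g⁻¹ = w' := mul_left_cancel (h1.trans (hsq _ hw'N).symm)
        rcases hgfix _ hw'N h4 with e1 | e1
        · exact Finset.mem_insert.2 (Or.inl (Subtype.ext (mul_right_cancel (e1.trans (hsq _ u₀.2).symm))))
        · refine Finset.mem_insert.2 (Or.inr (Finset.mem_singleton.2 (Subtype.ext ?_)))
          show (u : G) = v * u₀
          rw [← e1, hw', mul_assoc, hsq _ u₀.2, mul_one]
      · refine Nat.mul_le_mul_left 2 (le_trans (Finset.card_le_card (t := {1, v}) fun y hy => ?_) Finset.card_le_two)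
        obtain ⟨u, -, rfl⟩ := Finset.mem_image.1 hy
        have h1 : g * φ u * g⁻¹ = φ u := by
          show g * ((u : G) * (g * u * g⁻¹)) * g⁻¹ = (u : G) * (g * u * g⁻¹)
          calc g * ((u : G) * (g * u * g⁻¹)) * g⁻¹ = (g * u * g⁻¹) * (g * g * u * (g * g)⁻¹) := by group
            _ = (g * u * g⁻¹) * u := by rw [hgg]; group
            _ = (u : G) * (g * u * g⁻¹) := hcommN _ (hgN _ u.2) _ u.2
        simpa using hgfix _ (mul_mem u.2 (hgN _ u.2)) h1
    have hkle : k ≤ 2 := (Nat.pow_le_pow_iff_right (by norm_num)).1 (hk ▸ hcount : 2 ^ k ≤ 2 ^ 2)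
    obtain rfl : k = 2 := by omega
    exact Nat.prime_two
  -- the Frobenius kernel of the point stabiliser
  set X := stabilizer G a with hX
  set E := H.subgroupOf X with hE
  have hEm : ∀ x : X, x ∈ E ↔ (x : G) • b = b := fun x =>
    ⟨fun h => (Subgroup.mem_subgroupOf.mp h).2, fun h => Subgroup.mem_subgroupOf.mpr ⟨x.2, h⟩⟩
  have hba : b ≠ a := Ne.symm hab
  have hXt : ∀ p : Ω, p ≠ a → ∃ x : X, (x : G) • b = p := fun p hp => by
    obtain ⟨f, f1, f2⟩ := h2' hab (Ne.symm hp)
    exact ⟨⟨f, f1⟩, f2⟩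
  obtain ⟨c, hca, hcb⟩ : ∃ c : Ω, c ≠ a ∧ c ≠ b := by
    have h4 : (2 : ℕ) < Fintype.card Ω := by
      rw [← hNcard, hk]
      calc (2 : ℕ) < 2 ^ 2 := by norm_num
        _ ≤ 2 ^ k := Nat.pow_le_pow_right (by norm_num) hk2
    obtain ⟨c, hc⟩ : ∃ c, c ∉ ({a, b} : Finset Ω) := by
      by_contra h
      push Not at h
      have h5 := Finset.card_le_card (fun c (_ : c ∈ (Finset.univ : Finset Ω)) => h c)
      rw [Finset.card_univ, Finset.card_pair hab] at h5
      omega
    simp only [Finset.mem_insert, Finset.mem_singleton, not_or] at hc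
    exact ⟨c, hc⟩
  have hfc : Cfsg.IsFrobeniusComplement E := by
    refine ⟨fun e => ?_, fun e => ?_, fun x hx => ?_⟩
    · have h' : (⟨g, hga'⟩ : X) ∈ E := (hEm _).2 hgb'
      rw [e, Subgroup.mem_bot] at h'
      exact hg1 (congrArg Subtype.val h')
    · obtain ⟨x, hx⟩ := hXt c hca
      exact hcb (hx.symm.trans ((hEm x).1 (e ▸ Subgroup.mem_top x)))
    · refine (Subgroup.eq_bot_iff_forall _).2 ?_
      rintro y ⟨hy, z, hz, hzy⟩
      have hzy' : x * z * x⁻¹ = y := hzy
      have h1 : (y : G) • ((x : G) • b) = (x : G) • b := by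
        rw [← hzy', Subgroup.coe_mul, Subgroup.coe_mul, InvMemClass.coe_inv, mul_smul, mul_smul,
          inv_smul_smul, (hEm z).1 hz]
      have hxb : (x : G) • b ≠ b := fun e => hx ((hEm x).2 e)
      have hxa : (x : G) • b ≠ a := fun e => hba (MulAction.injective (x : G) (e.trans x.2.symm))
      exact Subtype.ext (h3 y a b _ hab (Ne.symm hxb) (Ne.symm hxa) y.2 ((hEm y).1 hy) h1)
  obtain ⟨M, hMset, hMn, hMc⟩ := CfsgLib.Frobenius.exists_kernel hfc
  have := hMn
  have hMnil := CfsgLib.NormalPComplement.isNilpotent_frobeniusKernel hfc M hMset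
  have hMfix : ∀ x ∈ M, ∀ p : Ω, p ≠ a → (x : G) • p = p → x = 1 := by
    intro x hx p hp hxp
    have hx' : x ∈ (M : Set X) := hx
    rw [hMset] at hx'
    refine hx'.resolve_right fun h => ?_
    obtain ⟨t, ht⟩ := hXt p hp
    refine h t ⟨t⁻¹ * x * t, (hEm _).2 ?_, ?_⟩
    · show ((t : G)⁻¹ * x * t) • b = b
      rw [mul_smul, mul_smul, ht, hxp, ← ht, inv_smul_smul]
    · show t * (t⁻¹ * x * t) * t⁻¹ = x
      group
  have hMcard : Nat.card M = 2 ^ k - 1 := by
    have h1 : Nat.card M = E.index := hMc.index_eq_card.symm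
    have hstab : stabilizer X b = E := by
      ext x; rw [MulAction.mem_stabilizer_iff, hEm]; rfl
    have horb : MulAction.orbit X b = {p : Ω | p ≠ a} := by
      ext p
      refine ⟨?_, fun hp => hXt p hp⟩
      rintro ⟨x, rfl⟩ e
      exact hba (MulAction.injective (x : G) (e.trans x.2.symm))
    rw [h1, ← hstab, MulAction.index_stabilizer, horb, ← hk, hNcard]
    show Set.ncard {p : Ω | p ≠ a} = _
    rw [show {p : Ω | p ≠ a} = ((Finset.univ.erase a : Finset Ω) : Set Ω) by ext; simp, Set.ncard_coe_finset,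
      Finset.card_erase_of_mem (Finset.mem_univ a), Finset.card_univ]
  have hMfpf : ∀ x ∈ M, ∀ u ∈ N, u ≠ 1 → (x : G) * u * (x : G)⁻¹ = u → x = 1 := by
    intro x hx u hu hu1 he
    refine hMfix x hx (u • a) (fun e => hu1 (hreg u hu a e)) ?_
    conv_rhs => rw [← he, mul_smul, mul_smul, inv_smul_eq_iff.2 (show (x : G) • a = a from x.2).symm]
  have hModd : Odd (Nat.card M) := by
    rw [hMcard]
    exact Nat.Even.sub_odd (Nat.one_le_two_pow) (Nat.even_pow.2 ⟨even_two, by omega⟩) odd_one
  haveI : IsMulCommutative N := ⟨⟨fun u w => Subtype.ext (hcommN u u.2 w w.2)⟩⟩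
  haveI : IsZGroup M := ⟨fun q hq P => by
    haveI := Fact.mk hq
    set R : Subgroup G := ((P : Subgroup M).map M.subtype).map X.subtype with hR
    let eR : (P : Subgroup M) ≃* R := ((P : Subgroup M).equivMapOfInjective _ M.subtype_injective).trans
      (((P : Subgroup M).map M.subtype).equivMapOfInjective _ X.subtype_injective)
    have hRN : R ≤ Subgroup.normalizer (N : Set G) := fun x _ => by
      rw [Subgroup.normalizer_eq_top_iff.2 hN]; exact Subgroup.mem_top x
    have hN0 : N ≠ ⊥ := fun e => hv1 ((Subgroup.eq_bot_iff_forall N).1 e v hv)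
    rcases CfsgLib.Cores.isCyclic_or_quaternion_of_fpf (P.2.of_equiv eR) hN0 hRN (by
        rintro x ⟨_, ⟨y, -, rfl⟩, rfl⟩ hx
        refine (Subgroup.eq_bot_iff_forall _).2 fun u hu => ?_
        obtain ⟨hu1, hu2⟩ := Subgroup.mem_inf.1 hu
        by_contra hu0
        refine hx ?_
        have hy1 : (y : X) = 1 := hMfpf y y.2 u hu1 hu0 (by
          have h := Subgroup.mem_centralizer_singleton_iff.1 hu2
          rw [show ((y : X) : G) * u = u * ((y : X) : G) from h.symm, mul_inv_cancel_right])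
        show ((y : X) : G) = 1
        rw [hy1]; rfl) with h | ⟨rfl, m, hm, ⟨e⟩⟩
    · exact eR.isCyclic.2 h
    · exfalso
      have h1 : Nat.card (P : Subgroup M) = 4 * 2 ^ m := by
        rw [Nat.card_congr (eR.trans e).toEquiv, Nat.card_eq_fintype_card, QuaternionGroup.card]
      refine Nat.not_even_iff_odd.2 hModd (even_iff_two_dvd.2 ?_)
      exact dvd_trans (h1 ▸ dvd_mul_of_dvd_left (by norm_num) _) (Subgroup.card_subgroup_dvd_card _)⟩
  have hMcyc : IsCyclic M := inferInstance
  obtain ⟨⟨m, hm⟩, hmgen⟩ := hMcyc.exists_generator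
  have hmo : orderOf m = 2 ^ k - 1 := by
    have h := orderOf_eq_card_of_forall_mem_zpowers hmgen
    rw [← Subgroup.orderOf_coe, hMcard] at h
    exact h
  -- the kernel as a vector space
  letI : CommGroup N := { (inferInstance : Group N) with mul_comm := fun u w => Subtype.ext (hcommN u u.2 w w.2) }
  letI : Module (ZMod 2) (Additive N) := AddCommGroup.zmodModule (fun u => by
    show Additive.ofMul (Additive.toMul u ^ 2) = 0
    have : Additive.toMul u ^ 2 = 1 := Subtype.ext (by rw [pow_two]; exact hsq _ (Additive.toMul u).2)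
    rw [this, ofMul_one])
  let conjN : G →* MulAut N := MulAut.conjNormal
  let act : G → Module.End (ZMod 2) (Additive N) := fun x =>
    (MonoidHom.toAdditive (conjN x).toMonoidHom).toZModLinearMap 2
  have hact : ∀ (x : G) (u : Additive N), ((Additive.toMul (act x u) : N) : G) = x * (Additive.toMul u : N) * x⁻¹ := by
    intro x u
    exact MulAut.conjNormal_apply _ _
  have hpow : ∀ (x : G) (i : ℕ) (u : Additive N), (act x ^ i) u = act (x ^ i) u := by
    intro x i
    induction i with
    | zero =>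
      intro u
      apply Additive.toMul.injective
      refine Subtype.ext ?_
      rw [hact]
      simp
    | succ i ih =>
      intro u
      rw [pow_succ', Module.End.mul_apply, ih]
      apply Additive.toMul.injective
      refine Subtype.ext ?_
      rw [hact, hact, hact, pow_succ']
      group
  set V0 : Additive N := Additive.ofMul (⟨v, hv⟩ : N) with hV0
  obtain ⟨F, iF, iFf, iC, e, ρ, hFc, hρ, he0, hepow⟩ := CfsgLib.Quasithin.exists_field_structure
    (V := Additive N) (p := 2) (q := k) (n := 2 ^ k - 1) hk2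
    (by rw [← hk]; exact Nat.card_congr Additive.toMul) (act (m : G)) (by omega)
    (fun i u hu hu0 => by
      rw [hpow] at hu
      have h1 := hact ((m : G) ^ i) u
      rw [hu] at h1
      have h4 : m ^ i = 1 := hMfpf _ (pow_mem hm i) _ (Additive.toMul u).2
        (fun e' => hu0 (Additive.toMul.injective (Subtype.ext e'))) (by rw [Subgroup.coe_pow]; exact h1.symm)
      rw [← hmo]; exact orderOf_dvd_of_pow_eq_one h4)
    (fun u hu => by
      have h1 := hact (m : G) u
      rw [hu] at h1
      apply Additive.toMul.injective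
      refine Subtype.ext ?_
      show ((Additive.toMul u : N) : G) = 1
      have h4 : (m : G) * (Additive.toMul u : N) * (m : G)⁻¹ = 1 := h1.symm
      exact conj_eq_one_iff.1 h4)
    V0 (fun e' => hv1 (congrArg Subtype.val (congrArg Additive.toMul e')))
  -- every non-zero element is a power of the root
  have hρall : ∀ y : F, y ≠ 0 → ∃ i : ℕ, y = ρ ^ i := by
    intro y hy
    set u := e.symm y with hu
    set ug : G := ((Additive.toMul u : N) : G) with hug
    have hu0 : ug ≠ 1 := fun e' => hy (by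
      have : u = 0 := Additive.toMul.injective (Subtype.ext e')
      rw [← e.apply_symm_apply y, ← hu, this, map_zero])
    obtain ⟨x, hx⟩ := hXt (ug • a) (fun e' => hu0 (hreg _ (Additive.toMul u).2 a e'))
    obtain ⟨⟨⟨w, hw⟩, ⟨h, hh⟩⟩, hwh⟩ := hMc.2 x
    obtain ⟨i, hi⟩ : ∃ i : ℕ, w = m ^ i := by
      have h1 := hmgen ⟨w, hw⟩
      rw [← mem_powers_iff_mem_zpowers] at h1
      obtain ⟨i, hi⟩ := h1
      exact ⟨i, by simpa using (congrArg Subtype.val hi).symm⟩
    refine ⟨i, ?_⟩
    have h1 : (act ((m : G) ^ i)) V0 = u := by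
      apply Additive.toMul.injective
      refine Subtype.ext (hsame _ (Additive.toMul _ : N).2 _ (Additive.toMul u).2 a ?_)
      rw [hact]
      have hwa : (w : G) • a = a := w.2
      have hwb : (w : G) • b = ug • a := by
        rw [← hx, ← hwh, Subgroup.coe_mul, mul_smul, (hEm h).1 hh]
      rw [hV0, toMul_ofMul, ← Subgroup.coe_pow, ← hi, mul_smul, mul_smul,
        inv_smul_eq_iff.2 hwa.symm, hva, hwb]
    have h4 := hepow i V0
    rw [hpow, h1, he0, mul_one, hu, e.apply_symm_apply] at h4
    exact h4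
  have hgN : g * v * g⁻¹ = v := hsame _ (hN.conj_mem v hv g) v hv a
    (by rw [mul_smul, mul_smul, inv_smul_eq_iff.2 hga'.symm, hva, hgb'])
  -- the induced field automorphism
  obtain ⟨j, hj⟩ : ∃ j : ℕ, g * (m : G) * g⁻¹ = (m : G) ^ j := by
    have h1 := hmgen ⟨_, hMn.conj_mem m hm ⟨g, hga'⟩⟩
    rw [← mem_powers_iff_mem_zpowers] at h1
    obtain ⟨j, hj⟩ := h1
    exact ⟨j, by simpa using (congrArg (fun z : M => ((z : X) : G)) hj).symm⟩
  let σf : F → F := fun y => e (act g (e.symm y))
  have hσρ : ∀ (i : ℕ) (y : F), σf (ρ ^ i * y) = ρ ^ (i * j) * σf y := by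
    intro i y
    have h1 : e.symm (ρ ^ i * y) = (act (m : G) ^ i) (e.symm y) := by
      apply e.injective; rw [hepow, e.apply_symm_apply, e.apply_symm_apply]
    show e (act g (e.symm (ρ ^ i * y))) = ρ ^ (i * j) * e (act g (e.symm y))
    rw [h1, ← hepow, hpow, hpow]
    congr 1
    apply Additive.toMul.injective
    refine Subtype.ext ?_
    rw [hact, hact, hact, hact]
    have : (m : G) ^ (i * j) = g * (m : G) ^ i * g⁻¹ := by
      rw [mul_comm, pow_mul, ← hj, conj_pow]
    rw [this]
    group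
  have hσ1 : σf 1 = 1 := by
    show e (act g (e.symm 1)) = 1
    have : act g V0 = V0 := by
      apply Additive.toMul.injective
      refine Subtype.ext ?_
      rw [hact]; exact hgN
    rw [← he0, e.symm_apply_apply, this]
  have hσρ1 : ∀ i : ℕ, σf (ρ ^ i) = ρ ^ (i * j) := fun i => by
    have := hσρ i 1
    rwa [hσ1, mul_one, mul_one] at this
  have hσmul : ∀ x y, σf (x * y) = σf x * σf y := by
    intro x y
    rcases eq_or_ne x 0 with rfl | hx
    · simp [σf]
    obtain ⟨i, rfl⟩ := hρall x hx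
    rw [hσρ, hσρ1]
  let σh : F →+* F :=
    { toFun := σf
      map_one' := hσ1
      map_mul' := hσmul
      map_zero' := by simp [σf]
      map_add' := fun x y => by simp [σf] }
  let σ : F ≃+* F := RingEquiv.ofBijective σh (Finite.injective_iff_bijective.1 σh.injective)
  have hσap : ∀ y, σ y = e (act g (e.symm y)) := fun _ => rfl
  have hσpow : ∀ (i : ℕ) (y : F), (σ ^ i) y = e (act (g ^ i) (e.symm y)) := by
    intro i
    induction i with
    | zero =>
      intro y
      show y = _
      rw [show act (g ^ 0) (e.symm y) = e.symm y by rw [← hpow]; rfl, e.apply_symm_apply]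
    | succ i ih =>
      intro y
      rw [pow_succ']
      show σ ((σ ^ i) y) = _
      rw [ih, hσap, e.symm_apply_apply, ← hpow, ← hpow, ← Module.End.mul_apply, ← pow_succ']
  haveI : Finite (F ≃+* F) := Finite.of_injective (fun f : F ≃+* F => (f : F → F)) DFunLike.coe_injective
  haveI : Fintype (Subgroup.zpowers σ) := Fintype.ofFinite _
  have hfixed : Nat.card (FixedPoints.subfield (Subgroup.zpowers σ) F) = 2 := by
    have hset : ((FixedPoints.subfield (Subgroup.zpowers σ) F : Subfield F) : Set F) = {0, 1} := by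
      ext y
      constructor
      · intro hy
        have h1 : σ y = y := hy ⟨σ, Subgroup.mem_zpowers σ⟩
        rw [hσap] at h1
        have h4 : act g (e.symm y) = e.symm y := e.injective (h1.trans (e.apply_symm_apply y).symm)
        have h5 := hact g (e.symm y)
        rw [h4] at h5
        rcases hgfix _ (Additive.toMul (e.symm y) : N).2 h5.symm with h6 | h6
        · left
          have h7 : e.symm y = 0 := Additive.toMul.injective (Subtype.ext h6)
          rw [← e.apply_symm_apply y, h7, map_zero]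
        · right
          have h7 : e.symm y = V0 := Additive.toMul.injective (Subtype.ext h6)
          show y = 1
          rw [← e.apply_symm_apply y, h7, he0]
      · rintro (rfl | rfl)
        · exact Subfield.zero_mem _
        · exact Subfield.one_mem _
    rw [show Nat.card (FixedPoints.subfield (Subgroup.zpowers σ) F) = Set.ncard ({0, 1} : Set F) by
      rw [← hset, ← Nat.card_coe_set_eq]; rfl]
    exact Set.ncard_pair zero_ne_one
  have hσr : σ ^ r = 1 := by
    refine RingEquiv.ext fun y => ?_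
    rw [hσpow, ← hgo, pow_orderOf_eq_one, show act 1 (e.symm y) = e.symm y by
      rw [← pow_zero (1 : G), ← hpow]; rfl, e.apply_symm_apply]
    rfl
  have h7 := Module.natCard_eq_pow_finrank (K := FixedPoints.subfield (Subgroup.zpowers σ) F) (V := F)
  rw [hfixed, Nat.card_eq_fintype_card, hFc, FixedPoints.finrank_eq_card, ← Nat.card_eq_fintype_card, Nat.card_zpowers] at h7
  have hkr : k = orderOf σ := Nat.pow_right_injective le_rfl h7
  rcases (Nat.dvd_prime (Fact.out : r.Prime)).1 (orderOf_dvd_of_pow_eq_one hσr) with h8 | h8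
  · omega
  · rw [hkr, h8]; exact Fact.out

end CfsgLib.SharplyEven
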